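import Mathlib
import Cfsg.Agent.Lib.Helper19.KAlt.Defs

/-!
# KALT (S0747): package [IDX]

A subgroup of `Sym(β)`, `|β| ≥ 5`, of index `< |β|` contains `Alt(β)`.
-/

set_option autoImplicit false

namespace Cfsg.Agent.Lib.Helper10.KAlt

open Cfsg.Agent.Lib.Helper19.KAlt

universe u

/-- **[IDX]** -/
theorem pkgIdx : PkgIdx.{u} := by
  intro β _ _ T h5 hlt
  classical
  by_cases hN : T.normalCore = ⊥
  · exfalso
    have hker : (MulAction.toPermHom (Equiv.Perm β) (Equiv.Perm β ⧸ T)).ker = ⊥ := by
      rw [← Subgroup.normalCore_eq_ker, hN]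
    have hinj : Function.Injective (MulAction.toPermHom (Equiv.Perm β) (Equiv.Perm β ⧸ T)) :=
      (MonoidHom.ker_eq_bot_iff _).1 hker
    have hcard := Nat.card_le_card_of_injective _ hinj
    rw [Nat.card_perm, Nat.card_perm, Nat.card_eq_fintype_card] at hcard
    have hidx : Nat.card (Equiv.Perm β ⧸ T) = T.index := rfl
    rw [hidx] at hcard
    have hmul := Subgroup.card_mul_index T
    rw [Nat.card_perm, Nat.card_eq_fintype_card (α := β)] at hmul
    have hlt' : T.index < Fintype.card β := by
      have : Nat.card T * T.index < Nat.card T * Fintype.card β := by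
        rw [hmul, mul_comm]; exact hlt
      exact Nat.lt_of_mul_lt_mul_left this
    have h1 : (T.index).factorial ≤ (Fintype.card β - 1).factorial :=
      Nat.factorial_le (by omega)
    have h2 : (Fintype.card β - 1).factorial < (Fintype.card β).factorial :=
      (Nat.factorial_lt (by omega)).2 (by omega)
    omega
  · have hnt : Nontrivial ↥T.normalCore := (Subgroup.nontrivial_iff_ne_bot _).2 hN
    exact (Equiv.Perm.alternatingGroup_le_of_normal (by rwa [Nat.card_eq_fintype_card]) hnt).trans
      (Subgroup.normalCore_le T)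

end Cfsg.Agent.Lib.Helper10.KAlt
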