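import Mathlib
import Cfsg.Agent.Lib.Helper19.KAlt.Defs

/-!
# KALT (S0747): package [ORB] (corrected form, with `j ≤ |α|`)

If all `j`-set stabilisers have order `≤ c` and `C(n,j) * c < 2 |G|`, then `G` is transitive on
the `j`-sets and `C(n,j)` divides `|G|`.
-/

set_option autoImplicit false

namespace Cfsg.Agent.Lib.Helper10.KAlt

open Cfsg.Agent.Lib.Helper75.LW Cfsg.Agent.Lib.Helper19.KAlt
open scoped Pointwise

universe u

section

variable {α : Type u} [Fintype α] [DecidableEq α]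

/-- the stabiliser of `Δ` in `↥G` (acting on finsets) has the order of `SS G Δ` -/
theorem card_stab_eq (G : Subgroup (Equiv.Perm α)) (Δ : Finset α) :
    Nat.card (MulAction.stabilizer ↥G Δ) = Nat.card (SS G Δ) := by
  have hle : SS G Δ ≤ G := fun g hg => hg.1
  have h1 : MulAction.stabilizer ↥G Δ = (SS G Δ).subgroupOf G := by
    ext ⟨g, hg⟩
    rw [MulAction.mem_stabilizer_iff, Subgroup.mem_subgroupOf]
    constructor
    · intro h
      refine ⟨hg, fun a => ?_⟩
      have h2 : ∀ b, b ∈ (⟨g, hg⟩ : ↥G) • Δ ↔ b ∈ Δ := fun b => by rw [h]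
      rw [← h2 (g a)]
      exact Finset.smul_mem_smul_finset_iff (⟨g, hg⟩ : ↥G)
    · rintro ⟨-, h⟩
      ext b
      rw [Finset.mem_smul_finset]
      constructor
      · rintro ⟨y, hy, rfl⟩
        exact (h y).2 hy
      · intro hb
        refine ⟨g⁻¹ b, (h _).1 ?_, ?_⟩
        · have : g (g⁻¹ b) = b := by simp
          rw [this]; exact hb
        · show g (g⁻¹ b) = b
          simp
  rw [h1]
  exact Nat.card_congr (Subgroup.subgroupOfEquivOfLe hle).toEquiv

/-- **[ORB]**, corrected: with the hypothesis `j ≤ |α|` (the statement is false without it). -/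
theorem pkgOrb' (G : Subgroup (Equiv.Perm α)) (j c : ℕ) (hj : j ≤ Fintype.card α)
    (hc : ∀ Δ : Finset α, Δ.card = j → Nat.card (SS G Δ) ≤ c)
    (hlt : (Fintype.card α).choose j * c < 2 * Nat.card G) :
    (Fintype.card α).choose j ∣ Nat.card G := by
  classical
  obtain ⟨J, hJ⟩ : ∃ J : Set (Finset α), J = ↑(Finset.powersetCard j (Finset.univ : Finset α)) :=
    ⟨_, rfl⟩
  have hJcard : J.ncard = (Fintype.card α).choose j := by
    rw [hJ, Set.ncard_coe_finset, Finset.card_powersetCard, Finset.card_univ]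
  have hmemJ : ∀ Δ : Finset α, Δ ∈ J ↔ Δ.card = j := by
    intro Δ
    rw [hJ, Finset.mem_coe, Finset.mem_powersetCard]
    simp
  have horbJ : ∀ Δ : Finset α, Δ.card = j → MulAction.orbit ↥G Δ ⊆ J := by
    rintro Δ hΔ _ ⟨g, rfl⟩
    rw [hmemJ]
    simp only
    rw [Finset.card_smul_finset, hΔ]
  have hos : ∀ Δ : Finset α,
      (MulAction.orbit ↥G Δ).ncard * Nat.card (SS G Δ) = Nat.card G := by
    intro Δ
    have e := MulAction.orbitProdStabilizerEquivGroup ↥G Δ
    have h1 := Nat.card_congr e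
    rw [Nat.card_prod, card_stab_eq, Nat.card_coe_set_eq] at h1
    exact h1
  have horb : ∀ Δ : Finset α, Δ.card = j →
      Nat.card G ≤ (MulAction.orbit ↥G Δ).ncard * c := by
    intro Δ hΔ
    rw [← hos Δ]
    exact Nat.mul_le_mul_left _ (hc Δ hΔ)
  obtain ⟨Δ₀, -, hΔ₀⟩ := Finset.exists_subset_card_eq (s := (Finset.univ : Finset α))
    (n := j) (by rwa [Finset.card_univ])
  have hall : MulAction.orbit ↥G Δ₀ = J := by
    apply Set.Subset.antisymm (horbJ Δ₀ hΔ₀)
    intro Δ₁ hΔ₁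
    rw [hmemJ] at hΔ₁
    by_contra hnot
    have hdisj : Disjoint (MulAction.orbit ↥G Δ₀) (MulAction.orbit ↥G Δ₁) := by
      rw [Set.disjoint_left]
      intro x hx0 hx1
      apply hnot
      have e0 := MulAction.orbit_eq_iff.2 hx0
      have e1 := MulAction.orbit_eq_iff.2 hx1
      rw [← e0, e1]
      exact MulAction.mem_orbit_self Δ₁
    have hsub : MulAction.orbit ↥G Δ₀ ∪ MulAction.orbit ↥G Δ₁ ⊆ J :=
      Set.union_subset (horbJ _ hΔ₀) (horbJ _ hΔ₁)
    have h1 := Set.ncard_le_ncard hsub (Set.toFinite J)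
    rw [Set.ncard_union_eq hdisj (Set.toFinite _) (Set.toFinite _), hJcard] at h1
    have h2 := horb Δ₀ hΔ₀
    have h3 := horb Δ₁ hΔ₁
    have h4 : ((MulAction.orbit ↥G Δ₀).ncard + (MulAction.orbit ↥G Δ₁).ncard) * c ≤
        (Fintype.card α).choose j * c := Nat.mul_le_mul_right _ h1
    rw [add_mul] at h4
    omega
  have h1 := hos Δ₀
  rw [hall, hJcard] at h1
  exact Dvd.intro _ h1

end

end Cfsg.Agent.Lib.Helper10.KAlt
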